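-- Team project OMG (S2415), package [KILLZ] (helper84): a short root element kills the
-- anisotropic part of a vector with a non-zero hyperbolic coordinate.
import Mathlib
import Cfsg.Agent.Lib.Helper94.OMG.Defs
import Cfsg.Agent.Lib.Helper14.Eichler
import Cfsg.Agent.Lib.Helper14.Forms
import Cfsg.Agent.Lib.Helper44.Char2Forms

set_option autoImplicit false
open scoped MatrixGroups
open Matrix

universe u

namespace Cfsg.Agent.Lib.Helper84.OMG

open Cfsg.Agent.Lib.Helper94.OMG Cfsg.Agent.Lib.Helper64.OParM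

/-- existence of Eichler elements for a function which is a quadratic form with nondegenerate
polar form. -/
theorem exists_eich_aux {ι : Type} [Fintype ι] [DecidableEq ι] {F : Type u} [Field F]
    (Q : QuadraticForm F (ι → F)) (hQ : (QuadraticMap.polarBilin Q).Nondegenerate)
    (Q' : (ι → F) → F) (h : ⇑Q = Q') (u w : ι → F) (hu : Q' u = 0)
    (huw : QuadraticMap.polar Q' u w = 0) :
    ∃ σ : ↥(Cfsg.isometryGroup F Q'), ∀ x : ι → F,
      ((σ : GL ι F) : Matrix ι ι F) *ᵥ x = x + QuadraticMap.polar Q' u x • w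
        - (QuadraticMap.polar Q' w x + Q' w * QuadraticMap.polar Q' u x) • u := by
  subst h
  refine ⟨Cfsg.Agent.Lib.Helper14.eichElt Q hQ u w hu huw, fun x => ?_⟩
  rw [Cfsg.Agent.Lib.Helper14.eichElt_coe]
  exact Cfsg.Agent.Lib.Helper14.eichMat_mulVec Q u w x

/-- existence of the Eichler elements of the minus form. -/
theorem exists_eich {k : ℕ} {F : Type u} [Field F] [Fintype F] {a b : F} (hab : Aniso a b)
    (u w : MI k → F) (hu : QM k a b u = 0) (huw : BM k a b u w = 0) :
    ∃ σ : ↥(GM k F a b), IsEich a b u w σ :=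
  exists_eich_aux (Cfsg.Agent.Lib.Helper14.minusQF k F a b)
    (Cfsg.Agent.Lib.Helper44.minusQF_nondegenerate_all k F a b hab) _
    (Cfsg.Agent.Lib.Helper14.minusQF_coe k F a b) u w hu huw

theorem QM_eM {k : ℕ} {F : Type u} [Field F] (a b : F) (i : Fin k) :
    QM k a b (eM i : MI k → F) = 0 := by
  simp [QM, Cfsg.quadFormMinus, eM]

theorem QM_fM {k : ℕ} {F : Type u} [Field F] (a b : F) (i : Fin k) :
    QM k a b (fM i : MI k → F) = 0 := by
  simp [QM, Cfsg.quadFormMinus, fM]

theorem pkgKillZ : PkgKillZ.{u} := by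
  intro F _ _ k a b hab S K hK v hv
  obtain ⟨i, hiS, hi⟩ := hv
  by_cases hy : v (Sum.inl (Sum.inr i)) ≠ 0
  · have hwZ : IsZ ((-(1 / v (Sum.inl (Sum.inr i)))) • (Sum.elim 0 (v ∘ Sum.inr) : MI k → F)) := by
      intro j
      simp
    have huw : BM k a b (eM i)
        ((-(1 / v (Sum.inl (Sum.inr i)))) • (Sum.elim 0 (v ∘ Sum.inr) : MI k → F)) = 0 := by
      have h1 := Cfsg.Agent.Lib.Helper14.minus_polar_inl k F a b i
        ((-(1 / v (Sum.inl (Sum.inr i)))) • (Sum.elim 0 (v ∘ Sum.inr) : MI k → F))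
      exact h1.trans (hwZ _)
    obtain ⟨σ, hσ⟩ := exists_eich hab (eM i) _ (QM_eM a b i) huw
    have hB : BM k a b (eM i) v = v (Sum.inl (Sum.inr i)) :=
      Cfsg.Agent.Lib.Helper14.minus_polar_inl k F a b i v
    refine ⟨σ, hK i hiS _ hwZ σ (Or.inl hσ), ?_, ?_⟩
    · intro t
      rw [hσ v, hB]
      simp only [Pi.add_apply, Pi.sub_apply, Pi.smul_apply, smul_eq_mul, Sum.elim_inr,
        Function.comp_apply, eM, Pi.single_apply]
      simp only [reduceCtorEq, if_false, mul_zero, sub_zero]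
      field_simp
      ring
    · intro i' hi'
      have hne : i' ≠ i := fun h => hi' (h ▸ hiS)
      rw [hσ v, hB]
      constructor
      · simp [eM, Pi.single_apply, hne]
      · simp [eM, Pi.single_apply]
  · have hy0 : v (Sum.inl (Sum.inr i)) = 0 := not_not.mp hy
    have hx : v (Sum.inl (Sum.inl i)) ≠ 0 := by
      rcases hi with h | h
      · exact h
      · exact absurd hy0 h
    have hwZ : IsZ ((-(1 / v (Sum.inl (Sum.inl i)))) • (Sum.elim 0 (v ∘ Sum.inr) : MI k → F)) := by
      intro j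
      simp
    have huw : BM k a b (fM i)
        ((-(1 / v (Sum.inl (Sum.inl i)))) • (Sum.elim 0 (v ∘ Sum.inr) : MI k → F)) = 0 := by
      have h1 := Cfsg.Agent.Lib.Helper14.minus_polar_inr k F a b i
        ((-(1 / v (Sum.inl (Sum.inl i)))) • (Sum.elim 0 (v ∘ Sum.inr) : MI k → F))
      exact h1.trans (hwZ _)
    obtain ⟨σ, hσ⟩ := exists_eich hab (fM i) _ (QM_fM a b i) huw
    have hB : BM k a b (fM i) v = v (Sum.inl (Sum.inl i)) :=
      Cfsg.Agent.Lib.Helper14.minus_polar_inr k F a b i v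
    refine ⟨σ, hK i hiS _ hwZ σ (Or.inr hσ), ?_, ?_⟩
    · intro t
      rw [hσ v, hB]
      simp only [Pi.add_apply, Pi.sub_apply, Pi.smul_apply, smul_eq_mul, Sum.elim_inr,
        Function.comp_apply, fM, Pi.single_apply]
      simp only [reduceCtorEq, if_false, mul_zero, sub_zero]
      field_simp
      ring
    · intro i' hi'
      have hne : i' ≠ i := fun h => hi' (h ▸ hiS)
      rw [hσ v, hB]
      constructor
      · simp [fM, Pi.single_apply]
      · simp [fM, Pi.single_apply, hne]

end Cfsg.Agent.Lib.Helper84.OMG
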