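-- Team project OMG (S2415), package [UOMM] (helper84): an isometry of odd order of the minus
-- form lies in `Ω`.
import Mathlib
import Cfsg.Agent.Lib.Helper94.OMG.Defs
import Cfsg.Agent.Lib.Helper44.OElp.OddOmega
import Cfsg.Agent.Lib.Helper53.OElm.MinusQE

set_option autoImplicit false
open scoped MatrixGroups
open Matrix

universe u

namespace Cfsg.Agent.Lib.Helper84.OMG

open Cfsg.Agent.Lib.Helper94.OMG Cfsg.Agent.Lib.Helper64.OParM

theorem pkgUOmM : PkgUOmM.{u} := by
  intro F _ _ k a b hab hk u r hr hur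
  have hQ := (Cfsg.Agent.Lib.Helper53.OElm.pkgMinusQE F k a b hab).1
  have hord : Odd (orderOf (u : GL (MI k) F)) := by
    rw [Subgroup.orderOf_coe]
    exact Odd.of_dvd_nat hr (orderOf_dvd_of_pow_eq_one hur)
  have h := Cfsg.Agent.Lib.Helper44.OElp.pkgOddOmegaE F (MI k) _ hQ (by
      intro _
      right
      simp only [Fintype.card_sum, Fintype.card_fin]
      omega) (u : GL (MI k) F) u.2 hord
  unfold Cfsg.Geo.omegaGL at h
  obtain ⟨y, hy, hyu⟩ := Subgroup.mem_map.1 h
  have hyu' : y = u := Subtype.ext hyu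
  rw [← hyu']
  exact hy

end Cfsg.Agent.Lib.Helper84.OMG
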